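import Cfsg.Agent.Lib.Helper11.P6c0.K0

set_option autoImplicit false
set_option maxRecDepth 100000

namespace Cfsg.Agent.Lib.Helper11.P6c0

theorem chkAll : ∀ j < 14, blk fc sc rt.get INV isH j = true :=
  guardB_spec (D := 4) b0 (by norm_num)

theorem clAll : ∀ jb < 21, cblk fc nc cc (256 * 14) 672 1766847064778384329583297500742918515827483896875618958121606201292619776 gens jb = true :=
  guardB_spec (D := 5) c0 (by norm_num)

theorem hN0 : getN nc 0 = 0 := by decide +kernel


end Cfsg.Agent.Lib.Helper11.P6c0
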